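/-
In the presented Fi₂₂ the subgroup generated by b, …, i is isomorphic to PΩ₇(3) (helper16).
-/
import Cfsg.Agent.Lib.ToddCox.Fi22Cov.Base
import Cfsg.Agent.Lib.ToddCox.O73O.Main
import Cfsg.Agent.Lib.ToddCox.CentQuot
import Cfsg.Agent.Lib.ToddCox.Fi22_14080.Main
import Cfsg.Agent.S0292
import Cfsg.Prelude.Def_Classical

set_option autoImplicit false
set_option maxRecDepth 100000

namespace Cfsg.Agent.Lib.ToddCox.Fi22Cov

open scoped Matrix
open Cfsg Cfsg.Spor Cfsg.Agent.Lib.ToddCox.Fi22O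
open Cfsg.Agent.Lib.ToddCox.Fi22_3510 (rels RL sg LT Iv letters rep_exists tab inv reach)

abbrev QO : Type := PresentedGroup (coxRelators OPO73.edges ∪ {r | r ∈ OPO73.extra})

def waO : OPO73.Gen → List ℕ
  | .a => [3]
  | .b => [4]
  | .c => [5]
  | .d => [7]
  | .e => [8]
  | .f => [2]
  | .g => [1]
  | .h => [6]

theorem O_let : ∀ r ∈ coxList OPO73.edges ++ OPO73.extra, ∀ a ∈ wsubst waO inv r, a < 9 := by decide +kernel
theorem O_fix : ∀ r ∈ coxList OPO73.edges ++ OPO73.extra, ∀ b ∈ baseL, tabW tab (wsubst waO inv r) b = b := by decide +kernel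

theorem O_rel : ∀ r ∈ coxList OPO73.edges ++ OPO73.extra, FreeGroup.lift (fun a => wordVal gen (waO a)) r = 1 := by
  intro r hr
  rw [lift_eq_wsubst gen inv letters.genInv]
  exact word_one (O_let r hr) (O_fix r hr)

noncomputable def φO : QO →* PresentedGroup rels := presMap OPO73.edges OPO73.extra _ O_rel

theorem φO_ne : φO (PresentedGroup.of .a) ≠ 1 := by
  show presMap OPO73.edges OPO73.extra _ O_rel (PresentedGroup.of .a) ≠ 1
  rw [presMap_of]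
  exact word_ne_one (by decide +kernel) (k := 3) (by norm_num) (by decide +kernel)

theorem φO_inj : Function.Injective φO := injective_of_simple O73O.main.1 φO φO_ne

abbrev HO : Subgroup (PresentedGroup rels) := subG rels Fi22_14080.Sl

theorem waO_mem : ∀ a, ∀ y ∈ waO a, LT.getD y 1 ∈ Fi22_14080.Sl := by
  intro a
  cases a <;> decide +kernel

theorem φO_mem (q : QO) : φO q ∈ HO := by
  have : φO.range ≤ HO := by
    apply range_le_of_gens
    intro a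
    show presMap OPO73.edges OPO73.extra _ O_rel (PresentedGroup.of a) ∈ _
    rw [presMap_of]
    apply wordVal_mem
    intro y hy
    have h2 : PresentedGroup.mk rels (LT.getD y 1) ∈ HO := subG_mem (waO_mem a y hy)
    exact h2
  exact this ⟨q, rfl⟩

noncomputable def ψO : QO →* HO := φO.codRestrict _ φO_mem

theorem ψO_inj : Function.Injective ψO := by
  intro a b hab
  exact φO_inj (congrArg Subtype.val hab)

theorem card_HO : Nat.card HO = 4585351680 := by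
  obtain ⟨ρ, hρ, hinj, hcard⟩ := rep_faithful
  have h := Subgroup.card_mul_index HO
  rw [Fi22_14080.index_eq, hcard] at h
  exact Nat.eq_of_mul_eq_mul_right (by norm_num : 0 < 14080) (h.trans (by norm_num))

theorem card_QO : Nat.card QO = 4585351680 := O73O.main.2

/-! The matrices. -/

abbrev ιO : Type := Unit ⊕ (Fin 3 ⊕ Fin 3)
abbrev MO : Type := Matrix ιO ιO (ZMod 3)
abbrev Qf : (ιO → ZMod 3) → ZMod 3 := quadFormOdd 3 (ZMod 3)

def ordO : ιO → Fin 7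
  | .inl _ => 0
  | .inr (.inl i) => ⟨1 + i.1, by omega⟩
  | .inr (.inr i) => ⟨4 + i.1, by omega⟩

def mk7 (A : Matrix (Fin 7) (Fin 7) (ZMod 3)) : MO := Matrix.of fun i j => A (ordO i) (ordO j)

def SO : MO := Matrix.of fun i j =>
  match i, j with
  | .inl _, .inl _ => 2
  | .inr (.inl a), .inr (.inr b) => if a = b then 1 else 0
  | .inr (.inr a), .inr (.inl b) => if a = b then 1 else 0
  | _, _ => 0

theorem two_mul_Qf (v : ιO → ZMod 3) : 2 * Qf v = v ⬝ᵥ (SO *ᵥ v) := by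
  simp only [Qf, quadFormOdd, dotProduct, Matrix.mulVec, Fintype.sum_sum_type, Fin.sum_univ_three,
    Finset.univ_unique, Finset.sum_singleton, SO, Matrix.of_apply]
  simp
  ring

theorem mem_isom (g : GL ιO (ZMod 3)) (h : (g.1)ᵀ * SO * g.1 = SO) : g ∈ isometryGroup (ZMod 3) Qf := by
  intro u _
  show Qf (g.1 *ᵥ u) = Qf u
  apply mul_left_cancel₀ (show (2 : ZMod 3) ≠ 0 by decide)
  have h2 : u ⬝ᵥ (((g.1)ᵀ * SO * g.1) *ᵥ u) = (g.1 *ᵥ u) ⬝ᵥ (SO *ᵥ (g.1 *ᵥ u)) := by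
    rw [← Matrix.mulVec_mulVec, ← Matrix.mulVec_mulVec, Matrix.dotProduct_mulVec u (g.1)ᵀ, Matrix.vecMul_transpose]
  rw [two_mul_Qf, two_mul_Qf, ← h2, h]

def ma : MO := mk7 !![0, 0, 0, 1, 1, 1, 1; 2, 2, 0, 2, 2, 2, 2; 2, 0, 2, 2, 2, 2, 2; 2, 0, 0, 1, 2, 2, 2; 0, 0, 0, 0, 2, 0, 0; 0, 0, 0, 0, 0, 2, 0; 2, 0, 0, 2, 2, 2, 1]
def mb : MO := mk7 !![0, 1, 2, 2, 0, 2, 0; 0, 2, 0, 0, 0, 0, 0; 1, 1, 1, 2, 0, 2, 0; 0, 0, 0, 2, 0, 0, 0; 2, 2, 1, 1, 2, 1, 0; 1, 1, 2, 2, 0, 1, 0; 1, 1, 2, 2, 0, 2, 2]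
def mc : MO := mk7 !![2, 0, 0, 0, 0, 0, 0; 0, 1, 2, 0, 2, 2, 2; 0, 2, 1, 0, 2, 2, 2; 0, 2, 2, 2, 2, 2, 2; 0, 2, 2, 0, 1, 2, 2; 0, 2, 2, 0, 2, 1, 2; 0, 0, 0, 0, 0, 0, 2]
def md : MO := mk7 !![0, 1, 1, 0, 0, 1, 0; 0, 2, 0, 0, 0, 0, 0; 2, 2, 1, 0, 0, 2, 0; 0, 0, 0, 2, 0, 0, 0; 2, 2, 2, 0, 2, 2, 0; 2, 2, 2, 0, 0, 1, 0; 0, 0, 0, 0, 0, 0, 2]
def me : MO := mk7 !![0, 2, 2, 1, 0, 1, 2; 0, 2, 0, 0, 0, 0, 0; 2, 1, 0, 2, 0, 2, 1; 1, 2, 2, 0, 0, 1, 2; 1, 2, 2, 1, 2, 1, 2; 1, 2, 2, 1, 0, 0, 2; 2, 1, 1, 2, 0, 2, 0]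
def mf : MO := mk7 !![0, 2, 2, 0, 0, 2, 1; 0, 2, 0, 0, 0, 0, 0; 1, 2, 1, 0, 0, 2, 1; 2, 1, 1, 2, 0, 1, 2; 1, 2, 2, 0, 2, 2, 1; 1, 2, 2, 0, 0, 1, 1; 0, 0, 0, 0, 0, 0, 2]
def mg : MO := mk7 !![0, 1, 1, 1, 0, 0, 1; 0, 2, 0, 0, 0, 0, 0; 0, 0, 2, 0, 0, 0, 0; 2, 2, 2, 1, 0, 0, 2; 2, 2, 2, 2, 2, 0, 2; 2, 2, 2, 2, 0, 2, 2; 2, 2, 2, 2, 0, 0, 1]
def mh : MO := mk7 !![2, 0, 0, 0, 0, 0, 0; 0, 0, 1, 0, 2, 0, 1; 0, 0, 2, 0, 0, 0, 0; 0, 2, 2, 2, 1, 0, 2; 0, 2, 2, 0, 0, 0, 2; 0, 2, 2, 0, 1, 2, 2; 0, 0, 0, 0, 0, 0, 2]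

def ga : GL ιO (ZMod 3) := ⟨ma, ma, by decide +kernel, by decide +kernel⟩
def gb : GL ιO (ZMod 3) := ⟨mb, mb, by decide +kernel, by decide +kernel⟩
def gc : GL ιO (ZMod 3) := ⟨mc, mc, by decide +kernel, by decide +kernel⟩
def gd : GL ιO (ZMod 3) := ⟨md, md, by decide +kernel, by decide +kernel⟩
def ge : GL ιO (ZMod 3) := ⟨me, me, by decide +kernel, by decide +kernel⟩
def gf : GL ιO (ZMod 3) := ⟨mf, mf, by decide +kernel, by decide +kernel⟩
def gg : GL ιO (ZMod 3) := ⟨mg, mg, by decide +kernel, by decide +kernel⟩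
def gh : GL ιO (ZMod 3) := ⟨mh, mh, by decide +kernel, by decide +kernel⟩

def ta : isometryGroup (ZMod 3) Qf := ⟨ga, mem_isom _ (by decide +kernel)⟩
def tb : isometryGroup (ZMod 3) Qf := ⟨gb, mem_isom _ (by decide +kernel)⟩
def tc : isometryGroup (ZMod 3) Qf := ⟨gc, mem_isom _ (by decide +kernel)⟩
def td : isometryGroup (ZMod 3) Qf := ⟨gd, mem_isom _ (by decide +kernel)⟩
def te : isometryGroup (ZMod 3) Qf := ⟨ge, mem_isom _ (by decide +kernel)⟩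
def tf : isometryGroup (ZMod 3) Qf := ⟨gf, mem_isom _ (by decide +kernel)⟩
def tg : isometryGroup (ZMod 3) Qf := ⟨gg, mem_isom _ (by decide +kernel)⟩
def th : isometryGroup (ZMod 3) Qf := ⟨gh, mem_isom _ (by decide +kernel)⟩

def TO : OPO73.Gen → isometryGroup (ZMod 3) Qf
  | .a => ta
  | .b => tb
  | .c => tc
  | .d => td
  | .e => te
  | .f => tf
  | .g => tg
  | .h => th

theorem TO_val : ∀ r ∈ coxList OPO73.edges ++ OPO73.extra, ((FreeGroup.lift TO r : isometryGroup (ZMod 3) Qf) : GL ιO (ZMod 3)).1 = 1 := by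
  decide +kernel

theorem TO_rel : ∀ r ∈ coxList OPO73.edges ++ OPO73.extra, FreeGroup.lift TO r = 1 := by
  intro r hr
  exact Subtype.ext (Units.ext (TO_val r hr))

noncomputable def φI : QO →* isometryGroup (ZMod 3) Qf := presMap OPO73.edges OPO73.extra TO TO_rel

theorem noncomm_QO : ∃ x y : QO, x * y ≠ y * x := by
  apply noncomm_of_simple O73O.main.1
  rw [card_QO]
  norm_num

theorem perfect_QO : commutator QO = ⊤ := commutator_top_of_simple O73O.main.1 noncomm_QO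

noncomputable def φΩ : QO →* Omega (ZMod 3) Qf :=
  φI.codRestrict _ (fun q => mem_commutator_of_perfect perfect_QO φI q)

noncomputable def φP : QO →* POmega (ZMod 3) Qf := (QuotientGroup.mk' (Subgroup.center (Omega (ZMod 3) Qf))).comp φΩ

theorem T_noncomm : ((TO .a * TO .b : isometryGroup (ZMod 3) Qf) : GL ιO (ZMod 3)).1 ≠ ((TO .b * TO .a : isometryGroup (ZMod 3) Qf) : GL ιO (ZMod 3)).1 := by
  decide +kernel

theorem φP_ne : φP (PresentedGroup.of .a) ≠ 1 := by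
  intro h
  have h1 : φΩ (PresentedGroup.of .a) ∈ Subgroup.center (Omega (ZMod 3) Qf) := (QuotientGroup.eq_one_iff _).mp h
  have h2 := Subgroup.mem_center_iff.mp h1 (φΩ (PresentedGroup.of .b))
  have h3 : φI (PresentedGroup.of .b) * φI (PresentedGroup.of .a) = φI (PresentedGroup.of .a) * φI (PresentedGroup.of .b) :=
    congrArg Subtype.val h2
  have e1 : ∀ a, φI (PresentedGroup.of a) = TO a := fun a => presMap_of _ _ _ _ a
  rw [e1, e1] at h3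
  exact T_noncomm (congrArg (fun x : isometryGroup (ZMod 3) Qf => ((x : GL ιO (ZMod 3)).1)) h3.symm)

theorem φP_inj : Function.Injective φP := injective_of_simple O73O.main.1 φP φP_ne

theorem card_P : Nat.card (POmega (ZMod 3) Qf) = 4585351680 := by
  have h := Cfsg.Agent.S0292.result (F := ZMod 3) (q := 3) (ZMod.card 3) (by decide) 3 (le_refl _)
  have h2 : 2 * Nat.card (POmega (ZMod 3) Qf) = 9170703360 := h.trans (by norm_num [Finset.prod_range_succ])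
  omega

theorem main_O73 : Nonempty (HO ≃* POmega (ZMod 3) Qf) :=
  equiv_of_embed ψO ψO_inj φP φP_inj (card_P.trans card_QO.symm) (by rw [card_QO]; norm_num) (by rw [card_HO, card_QO])

end Cfsg.Agent.Lib.ToddCox.Fi22Cov
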