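/-
In the presented Fi₂₂ the subgroup generated by a, c, d, e, f, g, h, i and (abcdeh)⁵ is a non-split double cover of
PSU₆(2) (helper16).
-/
import Cfsg.Agent.Lib.ToddCox.Fi22Cov.Base
import Cfsg.Agent.Lib.ToddCox.U62O.Main
import Cfsg.Agent.Lib.ToddCox.CentQuot
import Cfsg.Agent.Lib.ToddCox.F4
import Cfsg.Agent.S0280
import Cfsg.Prelude.Def_Classical
import Cfsg.Prelude.Def_SporadicB

set_option autoImplicit false
set_option maxRecDepth 100000

namespace Cfsg.Agent.Lib.ToddCox.Fi22Cov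

open Cfsg Cfsg.Spor Cfsg.Agent.Lib.ToddCox.Fi22O
open Cfsg.Agent.Lib.ToddCox.Fi22_3510 (rels RL sg LT Iv Sl Gl letters rep_exists tab inv reach index_eq Sw)

abbrev G : Type := PresentedGroup rels
abbrev QU : Type := PresentedGroup (coxRelators OPU62.edges ∪ {r | r ∈ OPU62.extra})
abbrev HH : Subgroup G := subG rels Sl

def iU : OPU62.Gen → ℕ
  | .a => 7
  | .b => 8
  | .c => 6
  | .d => 4
  | .e => 3
  | .f => 2
  | .g => 5
  | .h => 1

def wU (a : OPU62.Gen) : List ℕ := Sw.getD (iU a) []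
def TU (a : OPU62.Gen) : G := wordVal gen (wU a)
abbrev zG : G := gen 0

theorem wU_lt : ∀ a, ∀ y ∈ wU a, y < 9 := by
  intro a
  cases a <;> decide +kernel

theorem word_inv : ∀ y, gen (inv y) = (gen y)⁻¹ := letters.genInv

theorem z_sq : zG * zG = 1 := by
  have h : wordVal gen [0, 0] = 1 := word_one (by decide +kernel) (by decide +kernel)
  simpa [wordVal] using h

theorem z_eq_inv : zG⁻¹ = zG := (eq_inv_of_mul_eq_one_left z_sq).symm

theorem U_let : ∀ r ∈ coxList OPU62.edges ++ OPU62.extra, ∀ a ∈ wsubst wU inv r, a < 9 := by decide +kernel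
theorem U_fix : ∀ r ∈ coxList OPU62.edges ++ OPU62.extra,
    (∀ b ∈ baseL, tabW tab (wsubst wU inv r) b = b) ∨ (∀ b ∈ baseL, tabW tab (wsubst wU inv r ++ [0]) b = b) := by
  decide +kernel

theorem U_rel : ∀ r ∈ coxList OPU62.edges ++ OPU62.extra, FreeGroup.lift TU r ∈ Subgroup.zpowers zG := by
  intro r hr
  have e : FreeGroup.lift TU r = wordVal gen (wsubst wU inv r) := lift_eq_wsubst gen inv word_inv wU r
  rcases U_fix r hr with h | h
  · rw [e, word_one (U_let r hr) h]
    exact Subgroup.one_mem _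
  · have h1 : wordVal gen (wsubst wU inv r ++ [0]) = 1 := word_one (by
      intro a ha
      rcases List.mem_append.mp ha with h2 | h2
      · exact U_let r hr a h2
      · simp at h2; omega) h
    rw [wordVal_append] at h1
    have h2 : wordVal gen [0] = zG := by simp [wordVal]
    rw [h2] at h1
    have h3 : wordVal gen (wsubst wU inv r) = zG := by
      have := eq_inv_of_mul_eq_one_right h1
      rw [this, z_eq_inv]
    rw [e, h3]
    exact Subgroup.mem_zpowers _

theorem z_word : wordVal gen (wsubst wU inv (OPU62.extra.getD 46 1)) = zG := by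
  have h1 : wordVal gen (wsubst wU inv (OPU62.extra.getD 46 1) ++ [0]) = 1 :=
    word_one (by decide +kernel) (by decide +kernel)
  rw [wordVal_append] at h1
  have h2 : wordVal gen [0] = zG := by simp [wordVal]
  rw [h2] at h1
  have := eq_inv_of_mul_eq_one_right h1
  rw [this, z_eq_inv]

theorem z_mem : zG ∈ Subgroup.closure (Set.range TU) := by
  have h := mem_closure_of_lift TU (OPU62.extra.getD 46 1)
  rw [show FreeGroup.lift TU (OPU62.extra.getD 46 1) = wordVal gen (wsubst wU inv (OPU62.extra.getD 46 1)) from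
    lift_eq_wsubst gen inv word_inv wU _, z_word] at h
  exact h

/-- The commutator word. -/
def commW (u v : List ℕ) : List ℕ := u ++ v ++ invW inv u ++ invW inv v

theorem commW_val (u v : List ℕ) : wordVal gen (commW u v) = (wordVal gen v)⁻¹ * (wordVal gen u)⁻¹ * wordVal gen v * wordVal gen u := by
  unfold commW
  rw [wordVal_append, wordVal_append, wordVal_append,
    wordVal_invW gen inv v (fun y _ => word_inv y), wordVal_invW gen inv u (fun y _ => word_inv y)]
  group

theorem commute_of_commW {u v : List ℕ} (h : wordVal gen (commW u v) = 1) : wordVal gen v * wordVal gen u = wordVal gen u * wordVal gen v := by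
  rw [commW_val] at h
  have h2 : (wordVal gen v)⁻¹ * (wordVal gen u)⁻¹ * (wordVal gen v * wordVal gen u) = 1 := by
    rw [← mul_assoc]; exact h
  rw [← mul_inv_rev] at h2
  exact (mul_eq_one_iff_eq_inv'.mp h2).symm ▸ (by group)

theorem z_comm_chk : ∀ a, (∀ y ∈ commW [0] (wU a), y < 9) ∧ ∀ b ∈ baseL, tabW tab (commW [0] (wU a)) b = b := by
  intro a
  cases a <;> decide +kernel

theorem z_comm (a : OPU62.Gen) : TU a * zG = zG * TU a := by
  have h := commute_of_commW (word_one (z_comm_chk a).1 (z_comm_chk a).2)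
  have h2 : wordVal gen [0] = zG := by simp [wordVal]
  rw [h2] at h
  exact h

theorem TU_noncomm : TU .a * TU .b ≠ TU .b * TU .a := by
  intro h
  have h1 : wordVal gen (commW (wU .a) (wU .b)) = 1 := by
    rw [commW_val]
    have h3 : TU .b * TU .a = TU .a * TU .b := h.symm
    show (TU .b)⁻¹ * (TU .a)⁻¹ * TU .b * TU .a = 1
    rw [mul_assoc, h3]
    group
  exact word_ne_one (by decide +kernel) (k := 8) (by norm_num) (by decide +kernel) h1

theorem TU_not : TU .a ∉ Subgroup.zpowers zG := by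
  intro h
  obtain ⟨k, hk⟩ := Subgroup.mem_zpowers_iff.mp h
  apply TU_noncomm
  rw [← hk]
  exact (Commute.zpow_left (show Commute zG (TU .b) from (z_comm .b).symm) k).eq

theorem card_QU : Nat.card QU = 9196830720 := U62O.main.2

theorem noncomm_QU : ∃ x y : QU, x * y ≠ y * x := by
  apply noncomm_of_simple U62O.main.1
  rw [card_QU]
  norm_num

theorem U_cq : Nat.card (Subgroup.center (Subgroup.closure (Set.range TU))) = Nat.card (Subgroup.zpowers zG) ∧
    Nonempty (↥(Subgroup.closure (Set.range TU)) ⧸ Subgroup.center (Subgroup.closure (Set.range TU)) ≃* QU) := cent_quot OPU62.edges OPU62.extra U62O.main.1 noncomm_QU TU (Subgroup.zpowers zG)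
  (fun g hg a => by
    obtain ⟨k, rfl⟩ := Subgroup.mem_zpowers_iff.mp hg
    exact (Commute.zpow_right (show Commute (TU a) zG from z_comm a) k).eq)
  (by rw [Subgroup.zpowers_le]; exact z_mem) U_rel .a TU_not

theorem z_ne : zG ≠ 1 := by
  intro h
  have h2 : wordVal gen [0] = 1 := by simpa [wordVal] using h
  exact word_ne_one (by decide +kernel) (k := 1) (by norm_num) (by decide +kernel) h2

theorem card_Z : Nat.card (Subgroup.zpowers zG) = 2 := by
  rw [Nat.card_zpowers]
  have : Fact (Nat.Prime 2) := ⟨Nat.prime_two⟩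
  apply orderOf_eq_prime
  · rw [pow_two]; exact z_sq
  · exact z_ne

/-! Generation. -/

theorem Sw_eq : ∀ i, i < 9 → Sw.getD i [] = relW sg (Sl.getD i 1) ∧ Sl.getD i 1 ∈ Sl := by decide +kernel

theorem iU_lt : ∀ a, iU a < 9 := by
  intro a
  cases a <;> decide

theorem TU_eq (a : OPU62.Gen) : TU a = PresentedGroup.mk rels (Sl.getD (iU a) 1) := by
  rw [mk_eq_word]
  unfold TU wU
  rw [(Sw_eq _ (iU_lt a)).1]

theorem Sl_cases : ∀ s ∈ Sl, s = Fi22.a ∨ ∃ x ∈ [.a, .b, .c, .d, .e, .f, .g, .h], s = Sl.getD (iU x) 1 := by decide +kernel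

theorem HH_eq : HH = Subgroup.closure (Set.range TU) := by
  apply le_antisymm
  · show (Subgroup.closure {r | r ∈ Sl}).map (PresentedGroup.mk rels) ≤ _
    rw [Subgroup.map_le_iff_le_comap, Subgroup.closure_le]
    intro s hs
    rcases Sl_cases s hs with rfl | ⟨x, _, rfl⟩
    · exact z_mem
    · show PresentedGroup.mk rels (Sl.getD (iU x) 1) ∈ Subgroup.closure (Set.range TU)
      rw [← TU_eq]
      exact Subgroup.subset_closure ⟨x, rfl⟩
  · rw [Subgroup.closure_le]
    rintro _ ⟨a, rfl⟩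
    show TU a ∈ HH
    rw [TU_eq]
    exact subG_mem (Sw_eq _ (iU_lt a)).2

/-! Perfectness. -/

theorem TU_sq_chk : ∀ a, (∀ y ∈ wU a ++ wU a, y < 9) ∧ ∀ b ∈ baseL, tabW tab (wU a ++ wU a) b = b := by
  intro a
  cases a <;> decide +kernel

theorem TU_sq (a : OPU62.Gen) : TU a * TU a = 1 := by
  have h := word_one (TU_sq_chk a).1 (TU_sq_chk a).2
  rw [wordVal_append] at h
  exact h

def parU : OPU62.Gen → OPU62.Gen
  | .a => .a
  | .b => .a
  | .c => .a
  | .d => .b
  | .e => .d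
  | .f => .c
  | .g => .d
  | .h => .f

def depU : OPU62.Gen → ℕ
  | .a => 0
  | .b => 1
  | .c => 1
  | .d => 2
  | .e => 3
  | .f => 2
  | .g => 3
  | .h => 3

theorem cube_chk : ∀ a ∈ [.b, .c, .d, .e, .f, .g, .h], (∀ y ∈ powW (wU (parU a) ++ wU a) 3, y < 9) ∧ ∀ b ∈ baseL, tabW tab (powW (wU (parU a) ++ wU a) 3) b = b := by
  decide +kernel

theorem hparU : ∀ a, a = .a ∨ ((TU a * TU (parU a)) ^ 3 = 1 ∧ depU (parU a) < depU a) := by
  have key : ∀ a ∈ [.b, .c, .d, .e, .f, .g, .h], (TU a * TU (parU a)) ^ 3 = 1 := by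
    intro a ha
    obtain ⟨h1, h2⟩ := cube_chk a ha
    have h := word_one h1 h2
    rw [wordVal_powW, wordVal_append] at h
    exact h
  intro a
  cases a
  · exact Or.inl rfl
  · exact Or.inr ⟨key _ (by simp), by decide⟩
  · exact Or.inr ⟨key _ (by simp), by decide⟩
  · exact Or.inr ⟨key _ (by simp), by decide⟩
  · exact Or.inr ⟨key _ (by simp), by decide⟩
  · exact Or.inr ⟨key _ (by simp), by decide⟩
  · exact Or.inr ⟨key _ (by simp), by decide⟩
  · exact Or.inr ⟨key _ (by simp), by decide⟩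

def oddL : List OPU62.Gen := [.a, .d, .g, .f, .h, .d, .h, .e, .c, .h, .d, .a, .d, .g, .f, .h, .d, .h, .e, .c, .h, .d, .a, .d, .g, .f, .h, .d, .h, .e, .c, .h, .d, .a, .d, .g, .f, .h, .d, .h, .e, .c, .h, .d, .a, .d, .g, .f, .h, .d, .h, .e, .c, .h, .d, .a, .d, .g, .f, .h, .d, .h, .e, .c, .h, .d, .a, .d, .g, .f, .h, .d, .h, .e, .c, .h, .d, .a, .d, .g, .f, .h, .d, .h, .e, .c, .h, .d, .a, .d, .g, .f, .h, .d, .h, .e, .c, .h, .d]

theorem oddL_prod : (oddL.map TU).prod = 1 := by
  have h1 : (oddL.map TU).prod = wordVal gen (oddL.reverse.flatMap wU) := prod_map_wordVal gen wU oddL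
  rw [h1]
  exact word_one (by decide +kernel) (by decide +kernel)

theorem perfect_H0 : commutator (Subgroup.closure (Set.range TU)) = ⊤ :=
  perfect_closure TU TU_sq .a parU depU hparU oddL (by decide) oddL_prod

/-! The matrices. -/

abbrev SU6 : Type := Cfsg.SU 6 F4 2
abbrev M6 : Type := Matrix (Fin 6) (Fin 6) F4

theorem det_eq_one_of_inv6 {M : M6} (h : M * M = 1) : M.det = 1 := by
  have h2 : M.det * M.det = 1 := by rw [← Matrix.det_mul, h, Matrix.det_one]
  exact F4.sq_eq_one h2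

def mkS (M : M6) (h : M * M = 1) (hu : ∀ i j, ∑ k, M k i * (M k j) ^ 2 = if i = j then 1 else 0) : SU6 :=
  ⟨⟨M, det_eq_one_of_inv6 h⟩, mem_SU_of_unitary F4.frob_add (by norm_num) _ hu⟩

def ma : M6 := !![.o, .v, .l, .v, .w, .l; .w, .o, .w, .l, .v, .w; .l, .v, .o, .v, .w, .l; .w, .l, .w, .o, .v, .w; .v, .w, .v, .w, .o, .v; .l, .v, .l, .v, .w, .o]
def mb : M6 := !![.o, .w, .v, .w, .l, .w; .v, .o, .w, .l, .v, .l; .w, .v, .o, .v, .w, .v; .v, .l, .w, .o, .v, .l; .l, .w, .v, .w, .o, .w; .v, .l, .w, .l, .v, .o]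
def mc : M6 := !![.o, .v, .o, .v, .o, .w; .w, .o, .o, .l, .o, .v; .o, .o, .l, .o, .o, .o; .w, .l, .o, .o, .o, .v; .o, .o, .o, .o, .l, .o; .v, .w, .o, .w, .o, .o]
def md : M6 := !![.o, .w, .l, .w, .v, .w; .v, .o, .v, .l, .w, .l; .l, .w, .o, .w, .v, .w; .v, .l, .v, .o, .w, .l; .w, .v, .w, .v, .o, .v; .v, .l, .v, .l, .w, .o]
def me : M6 := !![.o, .w, .l, .o, .o, .v; .v, .o, .v, .o, .o, .w; .l, .w, .o, .o, .o, .v; .o, .o, .o, .l, .o, .o; .o, .o, .o, .o, .l, .o; .w, .v, .w, .o, .o, .o]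
def mf : M6 := !![.o, .l, .l, .l, .l, .v; .l, .o, .l, .l, .l, .v; .l, .l, .o, .l, .l, .v; .l, .l, .l, .o, .l, .v; .l, .l, .l, .l, .o, .v; .w, .w, .w, .w, .w, .o]
def mg : M6 := !![.o, .o, .o, .w, .w, .v; .o, .l, .o, .o, .o, .o; .o, .o, .l, .o, .o, .o; .v, .o, .o, .o, .l, .w; .v, .o, .o, .l, .o, .w; .w, .o, .o, .v, .v, .o]
def mh : M6 := !![.o, .l, .v, .v, .v, .v; .l, .o, .v, .v, .v, .v; .w, .w, .o, .l, .l, .l; .w, .w, .l, .o, .l, .l; .w, .w, .l, .l, .o, .l; .w, .w, .l, .l, .l, .o]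

def ta : SU6 := mkS ma (by decide +kernel) (by decide +kernel)
def tb : SU6 := mkS mb (by decide +kernel) (by decide +kernel)
def tc : SU6 := mkS mc (by decide +kernel) (by decide +kernel)
def td : SU6 := mkS md (by decide +kernel) (by decide +kernel)
def te : SU6 := mkS me (by decide +kernel) (by decide +kernel)
def tf : SU6 := mkS mf (by decide +kernel) (by decide +kernel)
def tg : SU6 := mkS mg (by decide +kernel) (by decide +kernel)
def th : SU6 := mkS mh (by decide +kernel) (by decide +kernel)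

def TS : OPU62.Gen → SU6
  | .a => ta
  | .b => tb
  | .c => tc
  | .d => td
  | .e => te
  | .f => tf
  | .g => tg
  | .h => th

theorem TS_rels : ∀ r ∈ coxList OPU62.edges ++ OPU62.extra,
    ∃ c ∈ [F4.l, F4.w, F4.v], (FreeGroup.lift TS r).1.1 = Matrix.diagonal (fun _ => c) := by
  decide +kernel

theorem mem_center_of_diag (g : SU6) (c : F4) (h : g.1.1 = Matrix.diagonal (fun _ => c)) : g ∈ Subgroup.center SU6 := by
  rw [Subgroup.mem_center_iff]
  intro x
  apply Subtype.ext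
  apply Subtype.ext
  show x.1.1 * g.1.1 = g.1.1 * x.1.1
  rw [h]
  ext i j
  simp [Matrix.mul_diagonal, Matrix.diagonal_mul, mul_comm]

def Tq (a : OPU62.Gen) : PSU 6 F4 2 := QuotientGroup.mk' (Subgroup.center SU6) (TS a)

theorem Tq_rel : ∀ r ∈ coxList OPU62.edges ++ OPU62.extra, FreeGroup.lift Tq r = 1 := by
  intro r hr
  have h1 : FreeGroup.lift Tq = (QuotientGroup.mk' (Subgroup.center SU6)).comp (FreeGroup.lift TS) := by
    ext a
    simp [Tq]
  rw [h1]
  show QuotientGroup.mk' (Subgroup.center SU6) (FreeGroup.lift TS r) = 1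
  rw [QuotientGroup.mk'_apply, QuotientGroup.eq_one_iff]
  obtain ⟨c, _, hc⟩ := TS_rels r hr
  exact mem_center_of_diag _ c hc

noncomputable def φPU : QU →* PSU 6 F4 2 := presMap OPU62.edges OPU62.extra Tq Tq_rel

theorem TS_noncomm : (TS .a * TS .b).1.1 ≠ (TS .b * TS .a).1.1 := by decide +kernel

theorem φPU_ne : φPU (PresentedGroup.of .a) ≠ 1 := by
  show presMap OPU62.edges OPU62.extra Tq Tq_rel (PresentedGroup.of .a) ≠ 1
  rw [presMap_of]
  intro h
  have h2 : TS .a ∈ Subgroup.center SU6 := (QuotientGroup.eq_one_iff _).mp h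
  have h3 := Subgroup.mem_center_iff.mp h2 (TS .b)
  exact TS_noncomm (congrArg (fun g : SU6 => g.1.1) h3.symm)

theorem φPU_inj : Function.Injective φPU := injective_of_simple U62O.main.1 φPU φPU_ne

theorem card_PSU6 : Nat.card (PSU 6 F4 2) = 9196830720 := by
  have h := Cfsg.Agent.S0280.result (F := F4) (q := 2) F4.card_eq 6 (by norm_num)
  have h2 : Nat.gcd 6 (2 + 1) * ((2 + 1) * Nat.card (PSU 6 F4 2)) = 82771476480 :=
    h.trans (by norm_num [Finset.prod_range_succ, Nat.even_iff])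
  norm_num at h2
  omega

noncomputable def eQP : QU ≃* PSU 6 F4 2 :=
  MulEquiv.ofBijective φPU (by
    have : Finite (PSU 6 F4 2) := Nat.finite_of_card_ne_zero (by rw [card_PSU6]; norm_num)
    have : Finite QU := Nat.finite_of_card_ne_zero (by rw [card_QU]; norm_num)
    exact (Nat.bijective_iff_injective_and_card φPU).mpr ⟨φPU_inj, by rw [card_QU, card_PSU6]⟩)

theorem main_H0 : Cfsg.IsNonsplitDoubleCover (Subgroup.closure (Set.range TU)) (PSU 6 F4 2) := by
  obtain ⟨h1, ⟨e⟩⟩ := U_cq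
  have h2 : Nat.card (Subgroup.center (Subgroup.closure (Set.range TU))) = 2 := h1.trans card_Z
  refine ⟨h2, ⟨e.trans eQP⟩, no_complement_of_perfect perfect_H0 (by rw [h2]; norm_num)⟩

theorem main_U62 : Cfsg.IsNonsplitDoubleCover HH (PSU 6 F4 2) := by
  rw [HH_eq]
  exact main_H0

end Cfsg.Agent.Lib.ToddCox.Fi22Cov
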