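/-
The presented Fi₂₂ as a 3-transposition group (helper16).
-/
import Cfsg.Agent.Lib.ToddCox.Fi22Cov.U62
import Cfsg.Agent.Lib.ToddCox.Transp
import Cfsg.Prelude.Def_Sporadic

set_option autoImplicit false
set_option maxRecDepth 100000
set_option linter.style.longLine false

namespace Cfsg.Agent.Lib.ToddCox.Fi22Cov

open Cfsg.Spor Cfsg.Agent.Lib.ToddCox.Fi22O
open Cfsg.Agent.Lib.ToddCox.Fi22_3510 (rels RL sg LT Iv Sl Gl letters rep_exists tab index_eq set_eq)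

theorem mk_one {r : FreeGroup Fi22.Gen} (hw : ∀ a ∈ relW sg r, a < 9) (hb : ∀ b ∈ baseL, tabW tab (relW sg r) b = b) :
    PresentedGroup.mk rels r = 1 := by
  rw [mk_eq_word]
  exact word_one hw hb

theorem mk_ne_one {r : FreeGroup Fi22.Gen} (hw : ∀ a ∈ relW sg r, a < 9) {k : ℕ} (hk : k < 3510)
    (h : tabW tab (relW sg r) k ≠ k) : PresentedGroup.mk rels r ≠ 1 := by
  rw [mk_eq_word]
  exact word_ne_one hw hk h

abbrev zF : FreeGroup Fi22.Gen := Fi22.a

theorem zG_ne : zG ≠ 1 := z_ne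

theorem zG_sq : zG * zG = 1 := z_sq

theorem zG_comm {h : G} (hh : h ∈ HH) : h * zG = zG * h := by
  rw [HH_eq] at hh
  induction hh using Subgroup.closure_induction with
  | mem x hx =>
    obtain ⟨a, rfl⟩ := hx
    exact z_comm a
  | one => simp
  | mul x y _ _ ihx ihy => rw [mul_assoc, ihy, ← mul_assoc, ihx, mul_assoc]
  | inv x _ ihx =>
    rw [inv_mul_eq_iff_eq_mul, ← mul_assoc, ihx, mul_assoc, mul_inv_cancel, mul_one]

def jF : FreeGroup Fi22.Gen := Fi22.b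
def r2F : FreeGroup Fi22.Gen := Fi22.b * Fi22.c * Fi22.a * Fi22.b

theorem z_j_ne : PresentedGroup.mk rels (zF * jF * zF⁻¹ * jF⁻¹) ≠ 1 :=
  mk_ne_one (by decide +kernel) (k := 1) (by norm_num) (by decide +kernel)

theorem r1_pair : PresentedGroup.mk rels ((zF * (jF * zF * jF⁻¹)) ^ 3) = 1 :=
  mk_one (by decide +kernel) (by decide +kernel)

theorem r2_pair : PresentedGroup.mk rels ((zF * (r2F * zF * r2F⁻¹)) ^ 2) = 1 :=
  mk_one (by decide +kernel) (by decide +kernel)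

theorem r1_pt : tabW tab (relW sg jF) 0 = 1 := by decide +kernel
theorem r2_pt : tabW tab (relW sg r2F) 0 = 2817 := by decide +kernel

theorem card_G : Nat.card G = 64561751654400 := Fi22O.main.2

theorem hcentral : Subgroup.centralizer ({zG} : Set G) = HH := by
  obtain ⟨ρ, hρ, _, _⟩ := rep_faithful
  obtain ⟨_, hb1⟩ := block_facts (d := 12) Cfsg.Agent.Lib.ToddCox.Fi22_3510.t6 (by norm_num) Cfsg.Agent.Lib.ToddCox.Fi22_3510.bk1
  obtain ⟨_, hb2⟩ := block_facts (d := 12) Cfsg.Agent.Lib.ToddCox.Fi22_3510.t6 (by norm_num) Cfsg.Agent.Lib.ToddCox.Fi22_3510.bk2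
  have hconn : BlocksConn ρ (subG rels Sl) sizes 1 := ⟨conn_of_tables hρ hb1, ⟨conn_of_tables hρ hb2, trivial⟩⟩
  have hfin : Finite G := Nat.finite_of_card_ne_zero (by rw [card_G]; norm_num)
  rcases max_of_rep ρ (H := HH) (C := Subgroup.centralizer ({zG} : Set G)) (by norm_num)
      (subG_fix hρ Cfsg.Agent.Lib.ToddCox.Fi22_3510.fix0)
      (rep_trans hρ (by norm_num) Cfsg.Agent.Lib.ToddCox.Fi22_3510.reach) index_eq sizes (by norm_num [sizes]) hconn hsum
      (fun h hh => Subgroup.mem_centralizer_singleton_iff.mpr (zG_comm hh)) with h | h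
  · exact h
  · exfalso
    apply z_j_ne
    have h1 : PresentedGroup.mk rels jF ∈ Subgroup.centralizer ({zG} : Set G) := by rw [h]; trivial
    have h2 := Subgroup.mem_centralizer_singleton_iff.mp h1
    simp only [map_mul, map_inv]
    change zG * PresentedGroup.mk rels jF * zG⁻¹ * (PresentedGroup.mk rels jF)⁻¹ = 1
    rw [← h2]
    group

theorem double_cosets : ∀ t : G, ∃ r ∈ [1, PresentedGroup.mk rels jF, PresentedGroup.mk rels r2F], ∃ h ∈ HH, ∃ h' ∈ HH, t = h * r * h' := by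
  obtain ⟨ρ, hρ, _, _⟩ := rep_faithful
  obtain ⟨_, hb1⟩ := block_facts (d := 12) Cfsg.Agent.Lib.ToddCox.Fi22_3510.t6 (by norm_num) Cfsg.Agent.Lib.ToddCox.Fi22_3510.bk1
  obtain ⟨_, hb2⟩ := block_facts (d := 12) Cfsg.Agent.Lib.ToddCox.Fi22_3510.t6 (by norm_num) Cfsg.Agent.Lib.ToddCox.Fi22_3510.bk2
  have hfin : Finite G := Nat.finite_of_card_ne_zero (by rw [card_G]; norm_num)
  have hn : 0 < 3510 := by norm_num
  have hfix : ∀ h ∈ HH, ρ h ⟨0, hn⟩ = ⟨0, hn⟩ := subG_fix hρ Cfsg.Agent.Lib.ToddCox.Fi22_3510.fix0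
  have htrans := rep_trans hρ hn Cfsg.Agent.Lib.ToddCox.Fi22_3510.reach
  have hstab : ∀ g : G, ρ g ⟨0, hn⟩ = ⟨0, hn⟩ → g ∈ HH := fun g hg => mem_of_fix ρ hn hfix htrans index_eq hg
  have hc1 := conn_rep ρ (lo := 1) (s := 2816) (by norm_num) (conn_of_tables hρ hb1)
  have hc2 := conn_rep ρ (lo := 2817) (s := 693) (by norm_num) (conn_of_tables hρ hb2)
  have hr1 : ρ (PresentedGroup.mk rels jF) ⟨0, hn⟩ = ⟨1, by norm_num⟩ := Fin.ext ((hρ jF ⟨0, hn⟩).trans r1_pt)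
  have hr2 : ρ (PresentedGroup.mk rels r2F) ⟨0, hn⟩ = ⟨2817, by norm_num⟩ := Fin.ext ((hρ r2F ⟨0, hn⟩).trans r2_pt)
  have hstep : ∀ (t h r : G) (i : Fin 3510), ρ t ⟨0, hn⟩ = i → h ∈ HH → ρ (h * r) ⟨0, hn⟩ = i →
      ∃ h' ∈ HH, t = h * r * h' := by
    intro t h r i h1 _ h3
    refine ⟨(h * r)⁻¹ * t, hstab _ ?_, by group⟩
    rw [map_mul, Equiv.Perm.mul_apply, h1, map_inv, Equiv.Perm.inv_eq_iff_eq, h3]
  intro t
  set i := ρ t ⟨0, hn⟩ with hi
  by_cases h0 : (i : ℕ) = 0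
  · refine ⟨1, by simp, 1, HH.one_mem, t, hstab t (Fin.ext (by rw [← hi]; exact h0)), by group⟩
  by_cases h1 : (i : ℕ) < 2817
  · obtain ⟨h, hh, e⟩ := hc1 i (by omega) (by omega)
    obtain ⟨h', hh', e'⟩ := hstep t h _ i rfl hh (by rw [map_mul, Equiv.Perm.mul_apply, hr1]; exact e)
    exact ⟨_, by simp, h, hh, h', hh', e'⟩
  · obtain ⟨h, hh, e⟩ := hc2 i (by omega) (by have := i.2; omega)
    obtain ⟨h', hh', e'⟩ := hstep t h _ i rfl hh (by rw [map_mul, Equiv.Perm.mul_apply, hr2]; exact e)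
    exact ⟨_, by simp, h, hh, h', hh', e'⟩

theorem pairs : ∀ d ∈ conjugatesOf zG, ∀ e ∈ conjugatesOf zG, (d * e) ^ 2 = 1 ∨ (d * e) ^ 3 = 1 := by
  apply pair_of_reps (H := HH) (fun h hh => zG_comm hh) double_cosets
  intro r hr
  simp only [List.mem_cons, List.not_mem_nil, or_false] at hr
  rcases hr with rfl | rfl | rfl
  · left
    simp only [one_mul, inv_one, mul_one]
    rw [pow_two, zG_sq, mul_one]
  · right
    have h2 := r1_pair
    simp only [map_pow, map_mul, map_inv] at h2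
    exact h2
  · left
    have h2 := r2_pair
    simp only [map_pow, map_mul, map_inv] at h2
    exact h2

theorem order_two : ∀ d ∈ conjugatesOf zG, orderOf d = 2 := by
  intro d hd
  have hd' : IsConj zG d := hd
  rw [isConj_iff] at hd'
  obtain ⟨g, rfl⟩ := hd'
  have h1 : orderOf (g * zG * g⁻¹) = orderOf zG :=
    orderOf_injective (MulAut.conj g).toMonoidHom (MulEquiv.injective _) zG
  rw [h1]
  have : Fact (Nat.Prime 2) := ⟨Nat.prime_two⟩
  apply orderOf_eq_prime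
  · rw [pow_two]; exact zG_sq
  · exact zG_ne

theorem main_transp : Cfsg.IsFi22 G ∧ ∃ D : Set G, Cfsg.IsThreeTranspositionClass D ∧ Nat.card D = 3510 ∧
    ∀ d ∈ D, ∃ (F : Type) (_ : Field F) (_ : Fintype F), Fintype.card F = 4 ∧
      Cfsg.IsNonsplitDoubleCover (Subgroup.centralizer ({d} : Set G)) (Cfsg.PSU 6 F 2) := by
  refine ⟨Fi22O.main, conjugatesOf zG, ⟨⟨order_two, pairs⟩, ⟨zG, mem_conjugatesOf_self, rfl⟩, closure_conj_top Fi22O.main.1 zG_ne⟩, ?_, ?_⟩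
  · rw [card_conjugatesOf, hcentral, index_eq]
  · intro d hd
    have hd' : IsConj zG d := hd
    rw [isConj_iff] at hd'
    obtain ⟨g, rfl⟩ := hd'
    refine ⟨F4, inferInstance, inferInstance, F4.card_eq, ?_⟩
    refine IsNonsplitDoubleCover_of_equiv (centralizerConj g zG) ?_
    rw [hcentral]
    exact main_U62

end Cfsg.Agent.Lib.ToddCox.Fi22Cov
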